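import Mathlib
import Cfsg.Agent.Lib.Helper71.JC.JCFour
import Cfsg.Agent.Lib.Helper51.Basic
import Cfsg.Agent.Lib.Helper91.Coprime2

set_option autoImplicit false

/-!
# KS12, package V1 (helper86): the counting lemma `count`

A family `W i` of pairwise commuting, independent four-groups inside `P`, and a largest
elementary abelian `2`-subgroup `A` of `P` permuting the `W i` by conjugation: then `A`
normalizes every `W i`.
-/

namespace Cfsg.Agent.Lib.Helper86.KS12

variable {G : Type*} [Group G]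

/-- Exponent two implies commutative. -/
theorem comm_of_sq {H : Subgroup G} (h2 : ∀ x ∈ H, x * x = 1) :
    ∀ a ∈ H, ∀ b ∈ H, a * b = b * a := by
  intro a ha b hb
  have h1 := h2 (a * b) (H.mul_mem ha hb)
  have e : b * a = a * (a * b * (a * b)) * b := by
    have : a * (a * b * (a * b)) * b = (a * a) * (b * a) * (b * b) := by group
    rw [this, h2 a ha, h2 b hb, one_mul, mul_one]
  rw [h1, mul_one] at e
  exact e.symm

theorem le_normalizer_of_comm {H K : Subgroup G} (hc : ∀ a ∈ H, ∀ b ∈ K, a * b = b * a) :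
    K ≤ Subgroup.normalizer (H : Set G) := by
  refine le_trans ?_ (Subgroup.centralizer_le_normalizer _)
  intro k hk
  rw [Subgroup.mem_centralizer_iff]
  intro h hh
  exact hc h hh k hk

/-- Decomposition of `H ⊔ K` for elementwise commuting subgroups. -/
theorem mem_sup_of_comm {H K : Subgroup G} (hc : ∀ a ∈ H, ∀ b ∈ K, a * b = b * a) {x : G}
    (hx : x ∈ H ⊔ K) : ∃ h ∈ H, ∃ k ∈ K, x = h * k :=
  (Cfsg.Agent.Lib.Helper71.JC.mem_sup_of_le_normalizer (le_normalizer_of_comm hc)).mp hx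

theorem card_sup_of_comm {H K : Subgroup G} (hc : ∀ a ∈ H, ∀ b ∈ K, a * b = b * a)
    (hHK : H ⊓ K = ⊥) : Nat.card ↥(H ⊔ K) = Nat.card H * Nat.card K := by
  have h1 := Cfsg.Agent.Lib.Helper91.card_sup_mul_card_inf_of_le_normalizer H K
    (le_normalizer_of_comm hc)
  rw [hHK, Subgroup.card_bot, mul_one] at h1
  exact h1

theorem sq_sup {H K : Subgroup G} (hH2 : ∀ x ∈ H, x * x = 1) (hK2 : ∀ x ∈ K, x * x = 1)
    (hc : ∀ a ∈ H, ∀ b ∈ K, a * b = b * a) : ∀ x ∈ H ⊔ K, x * x = 1 := by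
  intro x hx
  obtain ⟨h, hh, k, hk, rfl⟩ := mem_sup_of_comm hc hx
  calc h * k * (h * k) = h * (k * h) * k := by group
    _ = h * (h * k) * k := by rw [hc h hh k hk]
    _ = (h * h) * (k * k) := by group
    _ = 1 := by rw [hH2 h hh, hK2 k hk, one_mul]

theorem comm_biSup {ι : Type*} (W : ι → Subgroup G) (T : Finset ι) (H : Subgroup G)
    (h : ∀ l ∈ T, ∀ a ∈ H, ∀ b ∈ W l, a * b = b * a) :
    ∀ a ∈ H, ∀ b ∈ ⨆ l ∈ T, W l, a * b = b * a := by
  have hle : (⨆ l ∈ T, W l) ≤ Subgroup.centralizer (H : Set G) := by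
    refine iSup₂_le fun l hl b hb => ?_
    rw [Subgroup.mem_centralizer_iff]
    intro a ha
    exact h l hl a ha b hb
  intro a ha b hb
  exact Subgroup.mem_centralizer_iff.mp (hle hb) a ha

theorem sq_biSup {ι : Type*} (W : ι → Subgroup G) (hW2 : ∀ i, ∀ w ∈ W i, w * w = 1)
    (hcomm : ∀ i j, i ≠ j → ∀ a ∈ W i, ∀ b ∈ W j, a * b = b * a) (T : Finset ι) :
    ∀ x ∈ ⨆ j ∈ T, W j, x * x = 1 := by
  classical
  induction T using Finset.induction_on with
  | empty =>
    intro x hx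
    have hx1 : x = 1 := by simpa using hx
    rw [hx1, one_mul]
  | insert j T hj ih =>
    intro x hx
    rw [Finset.iSup_insert] at hx
    exact sq_sup (hW2 j) ih (comm_biSup W T (W j)
      (fun l hl a ha b hb => hcomm j l (by rintro rfl; exact hj hl) a ha b hb)) x hx

theorem le_compl {ι : Type*} (W : ι → Subgroup G) (T : Finset ι) (j : ι) (hj : j ∉ T) :
    (⨆ l ∈ T, W l) ≤ ⨆ l, ⨆ (_ : l ≠ j), W l :=
  iSup₂_le fun l hl => le_iSup₂_of_le l (by rintro rfl; exact hj hl) le_rfl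

theorem card_biSup {ι : Type*} (W : ι → Subgroup G) (hW4 : ∀ i, Nat.card ↥(W i) = 4)
    (hcomm : ∀ i j, i ≠ j → ∀ a ∈ W i, ∀ b ∈ W j, a * b = b * a) (hind : iSupIndep W)
    (T : Finset ι) : Nat.card ↥(⨆ j ∈ T, W j) = 4 ^ T.card := by
  classical
  induction T using Finset.induction_on with
  | empty => simp
  | insert j T hj ih =>
    rw [Finset.iSup_insert, Finset.card_insert_of_notMem hj, pow_succ, mul_comm]
    rw [card_sup_of_comm (comm_biSup W T (W j)
      (fun l hl a ha b hb => hcomm j l (by rintro rfl; exact hj hl) a ha b hb))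
      (disjoint_iff.mp ((hind j).mono_right (le_compl W T j hj))), hW4 j, ih]

/-- An element of `⨆ j ∈ T, W j` lying in every complement `⨆ l ≠ j, W l` (`j ∈ T`) is `1`. -/
theorem eq_one_of_mem_compl {ι : Type*} (W : ι → Subgroup G)
    (hcomm : ∀ i j, i ≠ j → ∀ a ∈ W i, ∀ b ∈ W j, a * b = b * a) (hind : iSupIndep W)
    (T : Finset ι) :
    ∀ z ∈ ⨆ j ∈ T, W j, (∀ j ∈ T, z ∈ ⨆ l, ⨆ (_ : l ≠ j), W l) → z = 1 := by
  classical
  induction T using Finset.induction_on with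
  | empty =>
    intro z hz _
    simpa using hz
  | insert j T hj ih =>
    intro z hz hall
    rw [Finset.iSup_insert] at hz
    obtain ⟨w, hw, r, hr, rfl⟩ := mem_sup_of_comm (comm_biSup W T (W j)
      (fun l hl a ha b hb => hcomm j l (by rintro rfl; exact hj hl) a ha b hb)) hz
    have hrc : r ∈ ⨆ l, ⨆ (_ : l ≠ j), W l := le_compl W T j hj hr
    have hwc : w ∈ ⨆ l, ⨆ (_ : l ≠ j), W l := by
      have h := Subgroup.mul_mem _ (hall j (Finset.mem_insert_self j T)) (Subgroup.inv_mem _ hrc)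
      rwa [mul_inv_cancel_right] at h
    have hw1 : w = 1 := by
      have h : w ∈ W j ⊓ ⨆ l, ⨆ (_ : l ≠ j), W l := ⟨hw, hwc⟩
      rw [disjoint_iff.mp (hind j)] at h
      exact Subgroup.mem_bot.mp h
    subst hw1
    rw [one_mul] at hall ⊢
    exact ih r hr (fun l hl => hall l (Finset.mem_insert_of_mem hl))

theorem mem_map_conj {H : Subgroup G} {a y : G} :
    y ∈ H.map (MulAut.conj a).toMonoidHom ↔ a⁻¹ * y * a ∈ H :=
  Cfsg.Agent.Lib.Helper71.JC.mem_conj_iff

theorem map_conj_eq_of_mem_normalizer {H : Subgroup G} {t : G}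
    (ht : t ∈ Subgroup.normalizer (H : Set G)) : H.map (MulAut.conj t).toMonoidHom = H := by
  ext y
  rw [mem_map_conj]
  have h := Subgroup.mem_normalizer_iff.mp (Subgroup.inv_mem _ ht) y
  rw [inv_inv] at h
  exact h.symm

theorem mem_normalizer_of_map_eq {H : Subgroup G} {c a : G}
    (h : H.map (MulAut.conj c).toMonoidHom = H.map (MulAut.conj a).toMonoidHom) :
    c⁻¹ * a ∈ Subgroup.normalizer (H : Set G) := by
  rw [Subgroup.mem_normalizer_iff]
  intro x
  have key : ∀ y, a⁻¹ * y * a ∈ H ↔ c⁻¹ * y * c ∈ H := by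
    intro y
    rw [← mem_map_conj, ← mem_map_conj, h]
  have h1 := key (a * x * a⁻¹)
  have e1 : a⁻¹ * (a * x * a⁻¹) * a = x := by group
  have e2 : c⁻¹ * (a * x * a⁻¹) * c = c⁻¹ * a * x * (c⁻¹ * a)⁻¹ := by group
  rw [e1, e2] at h1
  exact h1

/-- Conjugation by an element permuting the `W i` maps complements to complements. -/
theorem conj_mem_compl {ι : Type*} (W : ι → Subgroup G) (hinj : Function.Injective W)
    (a : G) (hperm : ∀ i, ∃ j, (W i).map (MulAut.conj a).toMonoidHom = W j) (j0 j1 : ι)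
    (h01 : (W j0).map (MulAut.conj a).toMonoidHom = W j1) :
    ∀ z ∈ ⨆ l, ⨆ (_ : l ≠ j0), W l, a * z * a⁻¹ ∈ ⨆ l, ⨆ (_ : l ≠ j1), W l := by
  have hle : (⨆ l, ⨆ (_ : l ≠ j0), W l) ≤
      (⨆ l, ⨆ (_ : l ≠ j1), W l).comap (MulAut.conj a).toMonoidHom := by
    refine iSup₂_le fun l hl => ?_
    rw [← Subgroup.map_le_iff_le_comap]
    obtain ⟨l', hl'⟩ := hperm l
    rw [hl']
    refine le_iSup₂_of_le l' ?_ le_rfl
    rintro rfl
    apply hl
    apply hinj
    exact Subgroup.map_injective (MulAut.conj a).injective (hl'.trans h01.symm)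
  intro z hz
  have h := hle hz
  rw [Subgroup.mem_comap] at h
  simpa [MulAut.conj_apply] using h

theorem four_mul_lt_four_pow (m : ℕ) (hm : 2 ≤ m) : 4 * m < 4 ^ m := by
  induction m, hm using Nat.le_induction with
  | base => norm_num
  | succ n hn ih => rw [pow_succ]; omega

theorem le_two_of_dvd_four (n : ℕ) (hn : n ∣ 4) (hn4 : n ≠ 4) : n ≤ 2 := by
  have h := Nat.le_of_dvd (by norm_num) hn
  interval_cases n
  · omega
  · omega
  · omega
  · exfalso; revert hn; decide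
  · exact absurd rfl hn4

/-- **KS12, V1**: a largest elementary abelian `2`-subgroup `A` of `P` permuting a family of
pairwise commuting independent four-groups `W i ≤ P` normalizes each of them. -/
theorem count [Finite G] {ι : Type*} [Finite ι] (W : ι → Subgroup G)
    (hW4 : ∀ i, Nat.card ↥(W i) = 4) (hW2 : ∀ i, ∀ w ∈ W i, w * w = 1)
    (hcomm : ∀ i j, i ≠ j → ∀ a ∈ W i, ∀ b ∈ W j, a * b = b * a) (hind : iSupIndep W)
    (P A : Subgroup G) (hWP : ∀ i, W i ≤ P) (hAP : A ≤ P) (hA2 : ∀ a ∈ A, a * a = 1)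
    (hAc : ∀ a ∈ A, ∀ b ∈ A, a * b = b * a)
    (hmax : ∀ B : Subgroup G, B ≤ P → (∀ b ∈ B, b * b = 1) →
      (∀ a ∈ B, ∀ b ∈ B, a * b = b * a) → Nat.card ↥B ≤ Nat.card ↥A)
    (hperm : ∀ a ∈ A, ∀ i, ∃ j, (W i).map (MulAut.conj a).toMonoidHom = W j) :
    ∀ a ∈ A, ∀ i, (W i).map (MulAut.conj a).toMonoidHom = W i := by
  classical
  intro a0 ha0 i0
  have hinj : Function.Injective W := hind.injective (fun i h => by
    have h4 := hW4 i
    rw [h, Subgroup.card_bot] at h4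
    omega)
  haveI : Fintype ι := Fintype.ofFinite ι
  -- the orbit of `i0`
  obtain ⟨O, hOmem⟩ : ∃ O : Finset ι, ∀ j, j ∈ O ↔
      ∃ a ∈ A, (W i0).map (MulAut.conj a).toMonoidHom = W j :=
    ⟨Finset.univ.filter (fun j => ∃ a ∈ A, (W i0).map (MulAut.conj a).toMonoidHom = W j),
      fun j => ⟨fun h => (Finset.mem_filter.mp h).2,
        fun h => Finset.mem_filter.mpr ⟨Finset.mem_univ _, h⟩⟩⟩
  have hi0 : i0 ∈ O := by
    refine (hOmem i0).mpr ⟨1, A.one_mem, ?_⟩
    exact map_conj_eq_of_mem_normalizer (Subgroup.one_mem _)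
  -- the subgroups
  obtain ⟨N1, hN1⟩ : ∃ N1 : Subgroup G, N1 = A ⊓ Subgroup.normalizer (W i0 : Set G) := ⟨_, rfl⟩
  obtain ⟨B, hB⟩ : ∃ B : Subgroup G, B = A ⊓ Subgroup.centralizer (W i0 : Set G) := ⟨_, rfl⟩
  obtain ⟨Pi, hPi⟩ : ∃ Pi : Subgroup G, Pi = ⨆ j ∈ O, W j := ⟨_, rfl⟩
  obtain ⟨Pi', hPi'⟩ : ∃ Pi' : Subgroup G, Pi' = ⨆ j ∈ O.erase i0, W j := ⟨_, rfl⟩
  have hBA : B ≤ A := by rw [hB]; exact inf_le_left
  have hBcen : ∀ b ∈ B, ∀ w ∈ W i0, w * b = b * w := by
    intro b hb w hw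
    rw [hB] at hb
    exact Subgroup.mem_centralizer_iff.mp hb.2 w hw
  have hBN1 : B ≤ N1 := by
    rw [hB, hN1]
    exact inf_le_inf_left _ (Subgroup.centralizer_le_normalizer _)
  have hN1A : N1 ≤ A := by rw [hN1]; exact inf_le_left
  have hN1n : ∀ s ∈ N1, s ∈ Subgroup.normalizer (W i0 : Set G) := by
    intro s hs
    rw [hN1] at hs
    exact hs.2
  -- `B` centralizes `Pi`
  have hBPi : ∀ b ∈ B, ∀ x ∈ Pi, b * x = x * b := by
    rw [hPi]
    refine comm_biSup W O B (fun l hl b hb x hx => ?_)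
    obtain ⟨c, hc, hcl⟩ := (hOmem l).mp hl
    rw [← hcl] at hx
    have hw := mem_map_conj.mp hx
    have hbc : Commute b c := hAc b (hBA hb) c hc
    have hbw : Commute b (c⁻¹ * x * c) := (hBcen b hb _ hw).symm
    have h := (hbc.mul_right hbw).mul_right hbc.inv_right
    have e : c * (c⁻¹ * x * c) * c⁻¹ = x := by group
    rw [e] at h
    exact h
  have hB2 : ∀ b ∈ B, b * b = 1 := fun b hb => hA2 b (hBA hb)
  have hPi2 : ∀ x ∈ Pi, x * x = 1 := by
    rw [hPi]
    exact sq_biSup W hW2 hcomm O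
  have hE2 : ∀ x ∈ B ⊔ Pi, x * x = 1 := sq_sup hB2 hPi2 hBPi
  have hEP : B ⊔ Pi ≤ P := by
    refine sup_le (hBA.trans hAP) ?_
    rw [hPi]
    exact iSup₂_le fun j _ => hWP j
  have h1 : Nat.card ↥(B ⊔ Pi) ≤ Nat.card A := hmax _ hEP hE2 (comm_of_sq hE2)
  have h2 : Nat.card B * Nat.card Pi ≤ Nat.card ↥(B ⊔ Pi) * Nat.card ↥(B ⊓ Pi) :=
    Cfsg.Agent.Lib.Helper51.card_mul_card_le_card_sup_mul_card_inf B Pi
  have h3 : Nat.card Pi = 4 ^ O.card := by
    rw [hPi]
    exact card_biSup W hW4 hcomm hind O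
  -- `|A| ≤ m |N1|`
  have h4 : Nat.card A ≤ O.card * Nat.card N1 := by
    have hr : ∀ j : ι, ∃ c : G, j ∈ O → c ∈ A ∧ (W i0).map (MulAut.conj c).toMonoidHom = W j := by
      intro j
      by_cases hj : j ∈ O
      · obtain ⟨c, hc, hcj⟩ := (hOmem j).mp hj
        exact ⟨c, fun _ => ⟨hc, hcj⟩⟩
      · exact ⟨1, fun h => absurd h hj⟩
    choose r hr using hr
    have hjo : ∀ a : ↥A, ∃ j : ι, (W i0).map (MulAut.conj (a : G)).toMonoidHom = W j :=
      fun a => hperm a a.2 i0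
    choose jo hjo using hjo
    have hjoO : ∀ a : ↥A, jo a ∈ O := fun a => (hOmem _).mpr ⟨a, a.2, hjo a⟩
    have hmem : ∀ a : ↥A, (r (jo a))⁻¹ * (a : G) ∈ N1 := by
      intro a
      rw [hN1]
      refine ⟨A.mul_mem (A.inv_mem (hr _ (hjoO a)).1) a.2, ?_⟩
      exact mem_normalizer_of_map_eq ((hr _ (hjoO a)).2.trans (hjo a).symm)
    let f : ↥A → ↥O × ↥N1 := fun a => (⟨jo a, hjoO a⟩, ⟨(r (jo a))⁻¹ * (a : G), hmem a⟩)
    have hf : Function.Injective f := by
      intro a a' h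
      have h1 : jo a = jo a' := congrArg (fun p => (p.1 : ι)) h
      have h2 : (r (jo a))⁻¹ * (a : G) = (r (jo a'))⁻¹ * (a' : G) :=
        congrArg (fun p => (p.2 : G)) h
      rw [h1] at h2
      exact Subtype.ext (mul_left_cancel h2)
    have hle := Nat.card_le_card_of_injective f hf
    rw [Nat.card_prod, Nat.card_eq_finsetCard] at hle
    exact hle
  -- the complement part
  have hPi'Pi : Pi' ≤ Pi := by
    rw [hPi, hPi']
    exact iSup₂_le fun l hl => le_iSup₂_of_le l (Finset.mem_of_mem_erase hl) le_rfl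
  have hPi'C : Pi' ≤ ⨆ l, ⨆ (_ : l ≠ i0), W l := by
    rw [hPi']
    exact le_compl W (O.erase i0) i0 (Finset.notMem_erase i0 O)
  have K2 : ∀ z ∈ Pi', (∀ a ∈ A, a * z = z * a) → z = 1 := by
    intro z hz hfix
    have hz' := hz
    rw [hPi'] at hz'
    refine eq_one_of_mem_compl W hcomm hind (O.erase i0) z hz' (fun j hj => ?_)
    obtain ⟨c, hc, hcj⟩ := (hOmem j).mp (Finset.mem_of_mem_erase hj)
    have h := conj_mem_compl W hinj c (hperm c hc) i0 j hcj z (hPi'C hz)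
    have e : c * z * c⁻¹ = z := by rw [hfix c hc, mul_inv_cancel_right]
    rwa [e] at h
  have hDPi' : (B ⊓ Pi) ⊓ Pi' = ⊥ := by
    rw [eq_bot_iff]
    intro z hz
    rw [Subgroup.mem_bot]
    exact K2 z hz.2 (fun a ha => hAc a ha z (hBA hz.1.1))
  have hDc : ∀ d ∈ B ⊓ Pi, ∀ p ∈ Pi', d * p = p * d :=
    fun d hd p hp => hBPi d hd.1 p (hPi'Pi hp)
  have hcard1 : Nat.card ↥((B ⊓ Pi) ⊔ Pi') = Nat.card ↥(B ⊓ Pi) * Nat.card Pi' :=
    card_sup_of_comm hDc hDPi'
  have hle1 : (B ⊓ Pi) ⊔ Pi' ≤ Pi := sup_le inf_le_right hPi'Pi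
  have hPi'card : Nat.card Pi' = 4 ^ (O.erase i0).card := by
    rw [hPi']
    exact card_biSup W hW4 hcomm hind (O.erase i0)
  have hOcard : (O.erase i0).card + 1 = O.card := Finset.card_erase_add_one hi0
  have hPicard' : Nat.card Pi = 4 * Nat.card Pi' := by
    rw [h3, hPi'card, ← hOcard, pow_succ, mul_comm]
  have hPi'pos : 0 < Nat.card Pi' := Nat.card_pos
  have hDdvd : Nat.card ↥(B ⊓ Pi) ∣ 4 := by
    have hdvd : Nat.card ↥(B ⊓ Pi) * Nat.card Pi' ∣ 4 * Nat.card Pi' := by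
      rw [← hcard1, ← hPicard']
      exact Subgroup.card_dvd_of_le hle1
    exact Nat.dvd_of_mul_dvd_mul_right hPi'pos hdvd
  have hD4 : Nat.card ↥(B ⊓ Pi) ≤ 4 := Nat.le_of_dvd (by norm_num) hDdvd
  -- `|N1| |B ⊓ Pi| ≤ 4 |B|`
  have h5 : Nat.card N1 * Nat.card ↥(B ⊓ Pi) ≤ 4 * Nat.card B := by
    by_cases hcase : N1 ≤ B
    · have hle := Subgroup.card_le_of_le hcase
      calc Nat.card N1 * Nat.card ↥(B ⊓ Pi) ≤ Nat.card B * 4 := Nat.mul_le_mul hle hD4
        _ = 4 * Nat.card B := mul_comm _ _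
    · obtain ⟨t, ht, htB⟩ := SetLike.not_le_iff_exists.mp hcase
      have hcen : ∀ s ∈ A, (∀ w ∈ W i0, s * w * s⁻¹ = w) → s ∈ B := by
        intro s hs h
        rw [hB]
        refine Subgroup.mem_inf.mpr ⟨hs, ?_⟩
        rw [Subgroup.mem_centralizer_iff]
        intro w hw
        calc w * s = (s * w * s⁻¹) * s := by rw [h w hw]
          _ = s * w := by group
      have htW : ¬ ∀ w ∈ W i0, t * w * t⁻¹ = w := fun h => htB (hcen t (hN1A ht) h)
      have hN1B : Nat.card N1 = Nat.card B * 2 := by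
        have hidx : B.relIndex N1 = 2 := by
          rw [Subgroup.relIndex_eq_two_iff]
          refine ⟨t, ht, fun s hs => ?_⟩
          by_cases hsB : s ∈ B
          · refine Or.inr ⟨hsB, fun h => htB ?_⟩
            have e : t = s⁻¹ * (s * t) := by group
            rw [e]
            exact B.mul_mem (B.inv_mem hsB) h
          · refine Or.inl ⟨?_, hsB⟩
            have hsW : ¬ ∀ w ∈ W i0, s * w * s⁻¹ = w := fun h => hsB (hcen s (hN1A hs) h)
            have h2 := Cfsg.Agent.Lib.Helper71.JC.two_invol (hW4 i0) (hW2 i0)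
              (comm_of_sq (hW2 i0)) (hN1n s hs) (hN1n t ht) (hA2 s (hN1A hs)) (hA2 t (hN1A ht))
              (hAc s (hN1A hs) t (hN1A ht)) hsW htW
            exact hcen (s * t) (A.mul_mem (hN1A hs) (hN1A ht)) h2
        have h1 := Subgroup.relIndex_mul_relIndex (⊥ : Subgroup G) B N1 bot_le hBN1
        rw [Subgroup.relIndex_bot_left, Subgroup.relIndex_bot_left, hidx] at h1
        exact h1.symm
      have hne : (B ⊓ Pi) ⊔ Pi' ≠ Pi := by
        intro heq
        apply htW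
        intro w hw
        have hwPi : w ∈ Pi := by
          rw [hPi]
          exact (le_iSup₂_of_le i0 hi0 le_rfl : W i0 ≤ ⨆ j ∈ O, W j) hw
        rw [← heq] at hwPi
        obtain ⟨d, hd, p, hp, rfl⟩ := mem_sup_of_comm hDc hwPi
        have hdt : t * d = d * t := hAc t (hN1A ht) d (hBA hd.1)
        have hpC := hPi'C hp
        have htp : t * p * t⁻¹ ∈ ⨆ l, ⨆ (_ : l ≠ i0), W l :=
          conj_mem_compl W hinj t (hperm t (hN1A ht)) i0 i0
            (map_conj_eq_of_mem_normalizer (hN1n t ht)) p hpC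
        have hconj : t * (d * p) * t⁻¹ ∈ W i0 :=
          (Subgroup.mem_normalizer_iff.mp (hN1n t ht) _).mp hw
        have e : (d * p)⁻¹ * (t * (d * p) * t⁻¹) = p⁻¹ * (t * p * t⁻¹) := by
          have e' : t * (d * p) * t⁻¹ = d * (t * p * t⁻¹) := by
            rw [← mul_assoc, hdt]; group
          rw [e']; group
        have hmem : p⁻¹ * (t * p * t⁻¹) ∈ W i0 ⊓ ⨆ l, ⨆ (_ : l ≠ i0), W l := by
          refine ⟨?_, Subgroup.mul_mem _ (Subgroup.inv_mem _ hpC) htp⟩
          rw [← e]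
          exact (W i0).mul_mem ((W i0).inv_mem hw) hconj
        rw [disjoint_iff.mp (hind i0), Subgroup.mem_bot] at hmem
        have e1 : (d * p)⁻¹ * (t * (d * p) * t⁻¹) = 1 := by rw [e, hmem]
        exact (inv_mul_eq_one.mp e1).symm
      have hD2 : Nat.card ↥(B ⊓ Pi) ≤ 2 := by
        refine le_two_of_dvd_four _ hDdvd (fun h4' => hne ?_)
        apply Subgroup.eq_of_le_of_card_ge hle1
        rw [hcard1, hPicard', h4']
      calc Nat.card N1 * Nat.card ↥(B ⊓ Pi) ≤ (Nat.card B * 2) * 2 := by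
            rw [hN1B]; exact Nat.mul_le_mul_left _ hD2
        _ = 4 * Nat.card B := by ring
  -- conclusion
  have hBpos : 0 < Nat.card B := Nat.card_pos
  have hfin : 4 ^ O.card * Nat.card B ≤ (4 * O.card) * Nat.card B := by
    calc 4 ^ O.card * Nat.card B = Nat.card B * Nat.card Pi := by rw [h3, mul_comm]
      _ ≤ Nat.card ↥(B ⊔ Pi) * Nat.card ↥(B ⊓ Pi) := h2
      _ ≤ Nat.card A * Nat.card ↥(B ⊓ Pi) := Nat.mul_le_mul_right _ h1
      _ ≤ (O.card * Nat.card N1) * Nat.card ↥(B ⊓ Pi) := Nat.mul_le_mul_right _ h4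
      _ = O.card * (Nat.card N1 * Nat.card ↥(B ⊓ Pi)) := by ring
      _ ≤ O.card * (4 * Nat.card B) := Nat.mul_le_mul_left _ h5
      _ = (4 * O.card) * Nat.card B := by ring
  have hm : 4 ^ O.card ≤ 4 * O.card := Nat.le_of_mul_le_mul_right hfin hBpos
  have hm1 : O.card ≤ 1 := by
    by_contra hcon
    have := four_mul_lt_four_pow O.card (by omega)
    omega
  obtain ⟨j, hj⟩ := hperm a0 ha0 i0
  have hjO : j ∈ O := (hOmem j).mpr ⟨a0, ha0, hj⟩
  have hji : j = i0 := Finset.card_le_one.mp hm1 j hjO i0 hi0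
  rw [hj, hji]

end Cfsg.Agent.Lib.Helper86.KS12
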