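import Mathlib
import Cfsg.Agent.S2946
import Cfsg.Agent.Lib.Helper71.JC.JCZ
import Cfsg.Agent.Lib.Helper11.ThompsonOf

set_option autoImplicit false

/-!
# KS12, Step 5.6 (helper86, for helper34's S2951 proof)

Two distinct involutions of `U ⊓ T'` centralizing every largest elementary abelian subgroup of
`T'` force `Ω₁Z(J(T')) ≤ U` when `|Ω₁Z(J(T'))| ≤ 4`, and then (S2946) some nontrivial element
of `U` is centralized by the `J(T')`-component `K'`.
-/

namespace Cfsg.Agent.Lib.Helper86.KS12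

open Cfsg

variable {G : Type*} [Group G]

theorem three_le_card {H : Subgroup G} [Finite H] {a b : G} (ha : a ∈ H) (hb : b ∈ H)
    (ha1 : a ≠ 1) (hb1 : b ≠ 1) (hab : a ≠ b) : 3 ≤ Nat.card H := by
  classical
  have : Fintype H := Fintype.ofFinite H
  rw [Nat.card_eq_fintype_card]
  have h3 : ({1, ⟨a, ha⟩, ⟨b, hb⟩} : Finset H).card = 3 := by
    rw [Finset.card_insert_of_notMem, Finset.card_insert_of_notMem, Finset.card_singleton]
    · simp only [Finset.mem_singleton, Subtype.mk.injEq]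
      exact hab
    · simp only [Finset.mem_insert, Finset.mem_singleton]
      rintro (h | h)
      · exact ha1 (congrArg Subtype.val h).symm
      · exact hb1 (congrArg Subtype.val h).symm
  rw [← h3]
  exact Finset.card_le_univ _

/-- An involution of `T'` centralizing every largest elementary abelian subgroup of `T'` lies
in `Ω₁Z(J(T'))`. -/
theorem mem_omegaCenterOf_thompson [Finite G] {T' : Subgroup G} {z : G} (hzT : z ∈ T')
    (hsq : z * z = 1)
    (hc : ∀ A ∈ Cfsg.Agent.Lib.Helper11.maxElemAbIn 2 T', ∀ a ∈ A, a * z = z * a) :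
    z ∈ omegaCenterOf (thompsonSubgroupOf 2 T') := by
  have hz2 : z ^ 2 = 1 := by rw [pow_two]; exact hsq
  rw [Cfsg.Agent.Lib.Helper71.JC.mem_omegaCenterOf_iff]
  obtain ⟨A₀, hA₀⟩ := Cfsg.Agent.Lib.Helper11.maxElemAbIn_nonempty 2 T'
  refine ⟨Cfsg.Agent.Lib.Helper11.le_thompsonSubgroupOf hA₀
    (Cfsg.Agent.Lib.Helper71.JC.mem_of_centralizes_max hA₀ hzT hz2 (hc A₀ hA₀)), ?_, hz2⟩
  have hle : thompsonSubgroupOf 2 T' ≤ Subgroup.centralizer ({z} : Set G) := by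
    rw [Cfsg.Agent.Lib.Helper11.thompsonSubgroupOf_eq, sSup_le_iff]
    intro A hA a ha
    rw [Subgroup.mem_centralizer_iff]
    intro h hh
    rw [Set.mem_singleton_iff] at hh
    rw [hh]
    exact (hc A hA a ha).symm
  intro j hj
  exact (Subgroup.mem_centralizer_iff.mp (hle hj) z rfl).symm

/-- **KS12, Step 5.6 (end)**. -/
theorem step56 [Finite G] (hL : IsCharacteristicTwoType G)
    (hN : ∀ N : Subgroup G, IsTwoLocal N → Group.IsSolvable ↥N)
    (hZ : ∀ S : Sylow 2 G, Subgroup.centralizer (omegaCenterOf (S : Subgroup G) : Set G) ≤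
      Subgroup.normalizer ((S : Subgroup G) : Set G))
    (T' K' : Subgroup G) (hT' : IsPGroup 2 ↥T') (hT'1 : T' ≠ ⊥) (hK' : IsJComponent T' K')
    (hcard : Nat.card ↥(omegaCenterOf (thompsonSubgroupOf 2 T')) ≤ 4)
    (U : Subgroup G) (z₁ z₂ : G) (hz₁U : z₁ ∈ U) (hz₂U : z₂ ∈ U) (hz₁T : z₁ ∈ T') (hz₂T : z₂ ∈ T')
    (hz₁ : z₁ ≠ 1) (hz₂ : z₂ ≠ 1) (hne : z₁ ≠ z₂) (h1sq : z₁ * z₁ = 1) (h2sq : z₂ * z₂ = 1)
    (hc₁ : ∀ A ∈ Cfsg.Agent.Lib.Helper11.maxElemAbIn 2 T', ∀ a ∈ A, a * z₁ = z₁ * a)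
    (hc₂ : ∀ A ∈ Cfsg.Agent.Lib.Helper11.maxElemAbIn 2 T', ∀ a ∈ A, a * z₂ = z₂ * a) :
    ∃ y ∈ U, y ≠ 1 ∧ K' ≤ Subgroup.centralizer ({y} : Set G) := by
  have h1 : z₁ ∈ omegaCenterOf (thompsonSubgroupOf 2 T') :=
    mem_omegaCenterOf_thompson hz₁T h1sq hc₁
  have h2 : z₂ ∈ omegaCenterOf (thompsonSubgroupOf 2 T') :=
    mem_omegaCenterOf_thompson hz₂T h2sq hc₂
  -- `Z₀' ≤ U`
  have h3 : 3 ≤ Nat.card ↥(omegaCenterOf (thompsonSubgroupOf 2 T') ⊓ U) :=
    three_le_card (Subgroup.mem_inf.mpr ⟨h1, hz₁U⟩) (Subgroup.mem_inf.mpr ⟨h2, hz₂U⟩) hz₁ hz₂ hne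
  have hdvd : Nat.card ↥(omegaCenterOf (thompsonSubgroupOf 2 T') ⊓ U) ∣
      Nat.card ↥(omegaCenterOf (thompsonSubgroupOf 2 T')) :=
    Subgroup.card_dvd_of_le inf_le_left
  have hZU : omegaCenterOf (thompsonSubgroupOf 2 T') ≤ U := by
    have heq : omegaCenterOf (thompsonSubgroupOf 2 T') ⊓ U =
        omegaCenterOf (thompsonSubgroupOf 2 T') := by
      apply Subgroup.eq_of_le_of_card_ge inf_le_left
      have hpos : 0 < Nat.card ↥(omegaCenterOf (thompsonSubgroupOf 2 T')) := Nat.card_pos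
      obtain ⟨m, hm⟩ := hdvd
      have hm1 : m = 1 := by
        rcases Nat.lt_or_ge m 2 with hlt | hge
        · interval_cases m
          · omega
          · rfl
        · exfalso
          have : 3 * 2 ≤ Nat.card ↥(omegaCenterOf (thompsonSubgroupOf 2 T') ⊓ U) * m :=
            Nat.mul_le_mul h3 hge
          omega
      rw [hm, hm1, mul_one]
    rw [← heq]
    exact inf_le_right
  have h3' : 3 ≤ Nat.card ↥(omegaCenterOf (thompsonSubgroupOf 2 T')) :=
    three_le_card h1 h2 hz₁ hz₂ hne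
  -- S2946
  obtain ⟨hW2, hsup⟩ := Cfsg.Agent.S2946.result hL hN hZ T' hT' hT'1 K' hK'
    (omegaCenterOf (thompsonSubgroupOf 2 T')) rfl
  have hY : omegaCenterOf (thompsonSubgroupOf 2 T') ⊓ ((K' ⊔ thompsonSubgroupOf 2 T') ⊓
      Subgroup.centralizer ((K' ⊔ thompsonSubgroupOf 2 T') : Set G)) ≠ ⊥ := by
    intro hbot
    rw [hbot, bot_sup_eq] at hsup
    rw [hsup] at hW2
    omega
  obtain ⟨y, hy1⟩ := (Subgroup.ne_bot_iff_exists_ne_one).mp hY
  refine ⟨y, hZU (Subgroup.mem_inf.mp y.2).1, fun h => hy1 (Subtype.ext h), ?_⟩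
  intro k hk
  have hyc := (Subgroup.mem_inf.mp (Subgroup.mem_inf.mp y.2).2).2
  rw [Subgroup.mem_centralizer_iff] at hyc ⊢
  intro h hh
  rw [Set.mem_singleton_iff] at hh
  rw [hh]
  refine (hyc k ?_).symm
  first
    | exact Or.inl hk
    | exact Subgroup.mem_sup_left hk
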